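import Mathlib
import Cfsg.Prelude.Def_GeometricClasses

/-! Ladder O9 (S5835), rung FRB. -/

set_option autoImplicit false
set_option linter.unusedSectionVars false

namespace Cfsg.Agent.Lib.Helper6.O9

open Cfsg Cfsg.Geo QuadraticMap
open scoped MatrixGroups Matrix

variable {ι : Type} [Fintype ι] [DecidableEq ι] {F : Type*} [Field F]

/-- FRB. pairwise orthogonal vectors of the same nonzero value, as many as the dimension, span a frame. -/
theorem frame_of_vectors (h2 : (2 : F) ≠ 0) (Q : QuadraticForm F (ι → F)) {n : ℕ} (hn : 2 ≤ n) (hc : Fintype.card ι = n)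
    (c : F) (hc0 : c ≠ 0) (b : Fin n → ι → F) (hb : ∀ i, Q (b i) = c) (ho : ∀ i j, i ≠ j → polar Q (b i) (b j) = 0) :
    IsOrthogonalMDecomposition Q 1 (fun i => Submodule.span F {b i}) := by
  have hself : ∀ i, polar Q (b i) (b i) = 2 * c := by
    intro i; rw [QuadraticMap.polar_self, hb]; simp
  have h2c : (2 : F) * c ≠ 0 := mul_ne_zero h2 hc0
  have hb0 : ∀ i, b i ≠ 0 := by
    intro i h
    have := hb i
    rw [h, QuadraticMap.map_zero] at this
    exact hc0 this.symm
  have hli : LinearIndependent F b := by
    rw [Fintype.linearIndependent_iff]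
    intro a ha j
    have h1 : polar Q (b j) (∑ i, a i • b i) = a j * (2 * c) := by
      have : polar Q (b j) (∑ i, a i • b i) = ∑ i, a i * polar Q (b j) (b i) := by
        have := map_sum (polarBilin Q (b j)) (fun i => a i • b i) Finset.univ
        simp only [polarBilin_apply_apply, polar_smul_right, smul_eq_mul] at this
        exact this
      rw [this, Finset.sum_eq_single j]
      · rw [hself]
      · intro i _ hij
        rw [ho j i (Ne.symm hij), mul_zero]
      · intro h; exact absurd (Finset.mem_univ _) h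
    rw [ha] at h1
    have h0 : polar Q (b j) 0 = 0 := by simp [polar]
    rw [h0] at h1
    exact (mul_eq_zero.mp h1.symm).resolve_right h2c
  refine ⟨⟨⟨hn, Nat.one_pos, ?_, ?_, ?_⟩, ?_, ?_⟩, ?_⟩
  · intro i
    exact finrank_span_singleton (hb0 i)
  · exact hli.iSupIndep_span_singleton
  · have h1 : (⨆ i, Submodule.span F {b i}) = Submodule.span F (Set.range b) := by
      rw [← Submodule.span_iUnion]
      congr 1
      ext x; simp [eq_comm]
    rw [h1]
    apply hli.span_eq_top_of_card_eq_finrank'
    rw [Fintype.card_fin, Module.finrank_fintype_fun_eq_card, hc]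
  · intro i w hw hw0
    obtain ⟨a, rfl⟩ := Submodule.mem_span_singleton.mp hw
    have ha : a ≠ 0 := by
      rintro rfl; simp at hw0
    refine ⟨⟨b i, Submodule.mem_span_singleton_self _, ?_⟩,
      ⟨b i, Submodule.mem_span_singleton_self _, ?_⟩⟩
    · rw [polar_smul_right, hself, smul_eq_mul]
      exact mul_ne_zero ha h2c
    · rw [polar_smul_left, hself, smul_eq_mul]
      exact mul_ne_zero ha h2c
  · intro i j hij u hu v hv
    obtain ⟨a, rfl⟩ := Submodule.mem_span_singleton.mp hu
    obtain ⟨a', rfl⟩ := Submodule.mem_span_singleton.mp hv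
    rw [polar_smul_left, polar_smul_right, ho i j hij]
    simp
  · intro i j
    refine ⟨(LinearEquiv.toSpanNonzeroSingleton F (ι → F) (b i) (hb0 i)).symm.trans
      (LinearEquiv.toSpanNonzeroSingleton F (ι → F) (b j) (hb0 j)), ?_⟩
    intro w
    obtain ⟨a, ha⟩ := (LinearEquiv.toSpanNonzeroSingleton F (ι → F) (b i) (hb0 i)).surjective w
    rw [← ha]
    simp only [LinearEquiv.trans_apply, LinearEquiv.symm_apply_apply]
    have e1 : ((LinearEquiv.toSpanNonzeroSingleton F (ι → F) (b j) (hb0 j) a :
        Submodule.span F {b j}) : ι → F) = a • b j := rfl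
    have e2 : ((LinearEquiv.toSpanNonzeroSingleton F (ι → F) (b i) (hb0 i) a :
        Submodule.span F {b i}) : ι → F) = a • b i := rfl
    rw [e1, e2, QuadraticMap.map_smul, QuadraticMap.map_smul, hb, hb]

end Cfsg.Agent.Lib.Helper6.O9
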