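import Cfsg.Agent.Lib.Helper11.AschO.WIT
import Cfsg.Agent.Lib.Helper11.AschO.SING

/-! Ladder O9 (S5835), rung PD3. -/

set_option autoImplicit false
set_option linter.unusedSectionVars false

namespace Cfsg.Agent.Lib.Helper6.O9

open Cfsg Cfsg.Geo QuadraticMap
open Cfsg.Agent.Lib.Helper11.AschO
open scoped MatrixGroups Matrix

variable {ι : Type} [Fintype ι] [DecidableEq ι] {F : Type*} [Field F]

/-- PD3. -/
theorem not_le_decomp3 [Fintype F] (Q : QuadraticForm F (ι → F)) (hQ : (polarBilin Q).Nondegenerate)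
    (h7 : 7 ≤ Fintype.card ι) {t : ℕ} (D : Fin t → Submodule F (ι → F)) (hD : IsOrthogonalMDecomposition Q 3 D) :
    ¬ omegaGL Q ≤ decompositionStabilizer D := by
  intro hle
  have ht : 2 ≤ t := hD.decomp.decomp.two_le
  let i0 : Fin t := ⟨0, by omega⟩
  let i1 : Fin t := ⟨1, by omega⟩
  have n01 : i0 ≠ i1 := by simp [i0, i1, Fin.ext_iff]
  obtain ⟨z0, hz0D, hz0, hQ0⟩ := exists_singular_in Q (D i0) (by rw [hD.decomp.decomp.finrank_eq i0])
  obtain ⟨z1, hz1D, hz1, hQ1⟩ := exists_singular_in Q (D i1) (by rw [hD.decomp.decomp.finrank_eq i1])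
  obtain ⟨⟨x, hx, hxz⟩, -⟩ := hD.decomp.nondegenerate i0 z0 hz0D hz0
  obtain ⟨⟨y, hy, hyz⟩, -⟩ := hD.decomp.nondegenerate i1 z1 hz1D hz1
  have hxw : polar Q x (z0 + z1) = polar Q x z0 := by
    rw [polar_add_right, hD.decomp.orthogonal i0 i1 n01 _ hx _ hz1D, add_zero]
  have hyw : polar Q y (z0 + z1) = polar Q y z1 := by
    rw [polar_add_right, hD.decomp.orthogonal i1 i0 n01.symm _ hy _ hz0D, zero_add]
  have hw0 : z0 + z1 ≠ 0 := by
    intro h0
    apply hxz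
    rw [← hxw, h0, polar_zero_right]
  have hQw : Q z0 = Q (z0 + z1) := by
    rw [QuadraticMap.map_add Q, hQ0, hQ1, hD.decomp.orthogonal i0 i1 n01 _ hz0D _ hz1D]
    ring
  obtain ⟨g, hg, hgw⟩ := omega_map_vec Q hQ h7 z0 (z0 + z1) hz0 hw0 hQw
  obtain ⟨σ, hσ⟩ := hle hg
  have hwD : z0 + z1 ∈ D (σ i0) := by
    rw [← hσ i0, ← hgw]
    exact ⟨z0, hz0D, by rw [Matrix.toLin'_apply]⟩
  by_cases hs : σ i0 = i0
  · apply hyz
    rw [← hyw]
    exact hD.decomp.orthogonal i1 (σ i0) (by rw [hs]; exact n01.symm) _ hy _ hwD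
  · apply hxz
    rw [← hxw]
    exact hD.decomp.orthogonal i0 (σ i0) (fun h => hs h.symm) _ hx _ hwD

end Cfsg.Agent.Lib.Helper6.O9
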