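import Cfsg.Agent.Lib.Helper11.AschO.SING

/-! Ladder O9 (S5835), rung PFB. -/

set_option autoImplicit false
set_option linter.unusedSectionVars false

namespace Cfsg.Agent.Lib.Helper6.O9

open Cfsg Cfsg.Geo QuadraticMap
open Cfsg.Agent.Lib.Helper11.AschO
open scoped MatrixGroups Matrix

variable {ι : Type} [Fintype ι] [DecidableEq ι] {F : Type*} [Field F]

theorem exists_singular_outside [Fintype F] (Q : QuadraticForm F (ι → F))
    (hc : Fintype.card ι = 9) (L : Submodule F (ι → F)) (hL : Module.finrank F L ≤ 3) (v w : ι → F) :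
    ∃ z, z ∉ L ∧ Q z = 0 ∧ polar Q v z = 0 ∧ polar Q w z = 0 := by
  have hV : Module.finrank F (ι → F) = 9 := by rw [Module.finrank_fintype_fun_eq_card, hc]
  obtain ⟨C, hC⟩ := Submodule.exists_isCompl L
  have hCd : Module.finrank F L + Module.finrank F C = 9 := by
    rw [Submodule.finrank_add_eq_of_isCompl hC, hV]
  obtain ⟨φ, hφ⟩ : ∃ φ : (ι → F) →ₗ[F] F × F, ∀ z, φ z = (polar Q v z, polar Q w z) :=
    ⟨(polarBilin Q v).prod (polarBilin Q w), fun z => rfl⟩
  have hM : Module.finrank F (LinearMap.range φ) + Module.finrank F (LinearMap.ker φ) = 9 := by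
    rw [LinearMap.finrank_range_add_finrank_ker, hV]
  have hR : Module.finrank F (LinearMap.range φ) ≤ 2 := by
    have := Submodule.finrank_le (LinearMap.range φ)
    rwa [Module.finrank_prod, Module.finrank_self] at this
  have hsum := Submodule.finrank_sup_add_finrank_inf_eq C (LinearMap.ker φ)
  have hsup : Module.finrank F ↥(C ⊔ LinearMap.ker φ) ≤ 9 := by
    rw [← hV]
    exact Submodule.finrank_le _
  obtain ⟨z, hzU, hz0, hQz⟩ := exists_singular_in Q (C ⊓ LinearMap.ker φ) (by omega)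
  have hker : φ z = 0 := LinearMap.mem_ker.1 hzU.2
  rw [hφ] at hker
  refine ⟨z, ?_, hQz, congrArg Prod.fst hker, congrArg Prod.snd hker⟩
  intro hzL
  apply hz0
  have : z ∈ L ⊓ C := ⟨hzL, hzU.1⟩
  rwa [hC.inf_eq_bot, Submodule.mem_bot] at this

end Cfsg.Agent.Lib.Helper6.O9
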