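import Cfsg.Agent.Lib.Helper6.O9.PFA
import Cfsg.Agent.Lib.Helper6.O9.PFB

/-! Ladder O9, rung PF: Omega_9 does not normalise a cubic field subalgebra. -/

set_option autoImplicit false
set_option linter.unusedSectionVars false

namespace Cfsg.Agent.Lib.Helper6.O9

open Cfsg Cfsg.Geo QuadraticMap
open Cfsg.Agent.Lib.Helper11.AschO
open scoped MatrixGroups Matrix

variable {ι : Type} [Fintype ι] [DecidableEq ι] {F : Type*} [Field F]

/-- evaluation at a vector, as a linear map. -/
def pfEv (v : ι → F) : Matrix ι ι F →ₗ[F] (ι → F) where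
  toFun x := x *ᵥ v
  map_add' a b := Matrix.add_mulVec a b v
  map_smul' c a := Matrix.smul_mulVec c a v

theorem pfEv_apply (v : ι → F) (x : Matrix ι ι F) : pfEv v x = x *ᵥ v := rfl

/-- PF. -/
theorem not_le_fieldNorm [Fintype F] (Q : QuadraticForm F (ι → F)) (hQ : (polarBilin Q).Nondegenerate)
    (hc : Fintype.card ι = 9) (K : Subalgebra F (Matrix ι ι F)) (hK : IsFieldSubalgebra 3 K) :
    ¬ omegaGL Q ≤ subalgebraNormalizer K := by
  intro hle
  have hne : Nonempty ι := Fintype.card_pos_iff.1 (by omega)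
  obtain ⟨i⟩ := hne
  have hne : Nonempty ι := ⟨i⟩
  -- a non scalar element
  obtain ⟨k, hkK, hkb⟩ : ∃ k ∈ K, k ∉ (⊥ : Subalgebra F (Matrix ι ι F)) := by
    by_contra hcon
    push Not at hcon
    have h1 : K = ⊥ := le_bot_iff.1 hcon
    have h2 := hK.finrank_eq
    rw [h1, Subalgebra.finrank_bot] at h2
    omega
  set v : ι → F := Pi.single i 1 with hv
  have hv0 : v ≠ 0 := by
    intro h
    have := congrFun h i
    simp [hv] at this
  have hinj : ∀ m ∈ K, m *ᵥ v = 0 → m = 0 := by
    intro m hm hmv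
    by_contra hm0
    obtain ⟨y, hy, hmy⟩ := hK.inv m hm hm0
    have hym : y * m = 1 := by rw [← hK.comm m hm y hy]; exact hmy
    apply hv0
    calc v = (y * m) *ᵥ v := by rw [hym, Matrix.one_mulVec]
      _ = y *ᵥ (m *ᵥ v) := (Matrix.mulVec_mulVec _ _ _).symm
      _ = 0 := by rw [hmv, Matrix.mulVec_zero]
  set w : ι → F := k *ᵥ v with hw
  set L : Submodule F (ι → F) := (Subalgebra.toSubmodule K).map (pfEv v) with hL
  have hLmem : ∀ x ∈ K, x *ᵥ v ∈ L := fun x hx => ⟨x, hx, rfl⟩
  have hLfr : Module.finrank F L ≤ 3 := by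
    have h1 := Submodule.finrank_map_le (pfEv v) (Subalgebra.toSubmodule K)
    have h2 : Module.finrank F (Subalgebra.toSubmodule K) = 3 := hK.finrank_eq
    rw [h2] at h1
    exact h1
  have hvL : v ∈ L := by
    have := hLmem 1 K.one_mem
    rwa [Matrix.one_mulVec] at this
  have hwL : w ∈ L := hLmem k hkK
  obtain ⟨z, hzL, hz, h1, h2⟩ := exists_singular_outside Q hc L hLfr v w
  have hvw : LinearIndependent F ![v, w] := by
    rw [LinearIndependent.pair_iff]
    intro s t hst
    have hm : (s • (1 : Matrix ι ι F) + t • k) = 0 := by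
      apply hinj _ (K.add_mem (K.smul_mem K.one_mem s) (K.smul_mem hkK t))
      rw [Matrix.add_mulVec, Matrix.smul_mulVec, Matrix.smul_mulVec, Matrix.one_mulVec]
      exact hst
    have ht : t = 0 := by
      by_contra ht
      apply hkb
      rw [Algebra.mem_bot]
      refine ⟨-(t⁻¹ * s), ?_⟩
      have h3 : t • k = -(s • (1 : Matrix ι ι F)) := eq_neg_of_add_eq_zero_right hm
      have h4 : k = t⁻¹ • (t • k) := by rw [smul_smul, inv_mul_cancel₀ ht, one_smul]
      rw [h4, h3, Algebra.algebraMap_eq_smul_one, smul_neg, smul_smul, neg_smul]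
    subst ht
    rw [zero_smul, add_zero] at hst
    exact ⟨(smul_eq_zero.1 hst).resolve_right hv0, rfl⟩
  have hvz : LinearIndependent F ![v, w + z] := by
    rw [LinearIndependent.pair_iff]
    intro s t hst
    have ht : t = 0 := by
      by_contra ht
      apply hzL
      have h3 : t • z = -(s • v) - t • w := by
        rw [smul_add] at hst
        have : t • z = (s • v + (t • w + t • z)) - s • v - t • w := by abel
        rw [this, hst]; abel
      have h4 : z = t⁻¹ • (t • z) := by rw [smul_smul, inv_mul_cancel₀ ht, one_smul]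
      rw [h4, h3]
      exact L.smul_mem _ (L.sub_mem (L.neg_mem (L.smul_mem _ hvL)) (L.smul_mem _ hwL))
    subst ht
    rw [zero_smul, add_zero] at hst
    exact ⟨(smul_eq_zero.1 hst).resolve_right hv0, rfl⟩
  obtain ⟨g, hg, hgv, hgw⟩ := omega_fix_move Q hQ (by omega) v w z hvw hvz hz h1 h2
  have hgK : (g : Matrix ι ι F) * k * ((g⁻¹ : GL ι F) : Matrix ι ι F) ∈ K := ((hle hg) k).1 hkK
  have hgiv : ((g⁻¹ : GL ι F) : Matrix ι ι F) *ᵥ v = v := by
    conv_lhs => rw [← hgv]
    rw [Matrix.mulVec_mulVec, ← Units.val_mul, inv_mul_cancel, Units.val_one, Matrix.one_mulVec]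
  have h5 := hLmem _ hgK
  rw [← Matrix.mulVec_mulVec, hgiv, ← Matrix.mulVec_mulVec, ← hw, hgw] at h5
  apply hzL
  have : z = (w + z) - w := by abel
  rw [this]
  exact L.sub_mem h5 hwL

end Cfsg.Agent.Lib.Helper6.O9
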