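import Cfsg.Agent.Lib.Helper11.AschO.SING
import Cfsg.Agent.Lib.Helper59.Asch9.PR8

/-! Ladder O9 (S5835), rung PWA. -/

set_option autoImplicit false
set_option linter.unusedSectionVars false

namespace Cfsg.Agent.Lib.Helper6.O9

open Cfsg Cfsg.Geo QuadraticMap
open Cfsg.Agent.Lib.Helper11.AschO
open Cfsg.Agent.Lib.Helper59.Asch9 (IsPureVec PresPure pr8_std)
open scoped MatrixGroups Matrix

variable {ι : Type} [Fintype ι] [DecidableEq ι] {F : Type*} [Field F]

/-- the pure array `e_0 ⊗ b`. -/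
def pwaX (b : Fin 3 → F) : (Fin 2 → Fin 3) → F := fun u => if u 0 = 0 then b (u 1) else 0

theorem pwaX_pure (b : Fin 3 → F) : IsPureVec 3 2 (pwaX b) := by
  refine ⟨![Pi.single 0 1, b], fun x => ?_⟩
  rw [Fin.prod_univ_two]
  simp only [pwaX, Matrix.cons_val_zero, Matrix.cons_val_one, Pi.single_apply]
  split_ifs <;> simp

/-- the linear map `b ↦ P (e_0 ⊗ b)`. -/
def pwaL (e : ι ≃ (Fin 2 → Fin 3)) (P : GL ι F) : (Fin 3 → F) →ₗ[F] (ι → F) where
  toFun b := (P : Matrix ι ι F) *ᵥ (pwaX b ∘ e)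
  map_add' b c := by
    rw [← Matrix.mulVec_add]
    congr 1
    funext i
    simp only [pwaX, Function.comp, Pi.add_apply]
    split_ifs <;> simp
  map_smul' c b := by
    rw [RingHom.id_apply, ← Matrix.mulVec_smul]
    congr 1
    funext i
    simp only [pwaX, Function.comp, Pi.smul_apply, smul_eq_mul]
    split_ifs <;> simp

theorem pwaL_injective (e : ι ≃ (Fin 2 → Fin 3)) (P : GL ι F) : Function.Injective (pwaL e P) := by
  intro b c h
  have h1 : pwaX b ∘ e = pwaX c ∘ e := by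
    have h2 := congrArg (fun v => ((P⁻¹ : GL ι F) : Matrix ι ι F) *ᵥ v) h
    simpa [pwaL, Matrix.mulVec_mulVec, ← Units.val_mul] using h2
  funext j
  have h3 := congrFun h1 (e.symm ![0, j])
  simpa [pwaX, Function.comp] using h3

/-- PWA. -/
theorem exists_pure_singular [Fintype F] (Q : QuadraticForm F (ι → F)) (e : ι ≃ (Fin 2 → Fin 3)) (P : GL ι F) :
    ∃ x : (Fin 2 → Fin 3) → F, x ≠ 0 ∧ IsPureVec 3 2 x ∧ Q ((P : Matrix ι ι F) *ᵥ (x ∘ e)) = 0 := by
  have hfr : Module.finrank F (LinearMap.range (pwaL e P)) = 3 := by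
    rw [LinearMap.finrank_range_of_inj (pwaL_injective e P)]
    simp
  obtain ⟨z, ⟨b, rfl⟩, hz0, hQz⟩ := exists_singular_in Q (LinearMap.range (pwaL e P)) (by rw [hfr])
  refine ⟨pwaX b, ?_, pwaX_pure b, hQz⟩
  intro h0
  apply hz0
  show (P : Matrix ι ι F) *ᵥ (pwaX b ∘ e) = 0
  rw [h0]
  have : (0 : (Fin 2 → Fin 3) → F) ∘ e = 0 := rfl
  rw [this, Matrix.mulVec_zero]

end Cfsg.Agent.Lib.Helper6.O9
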