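import Cfsg.Agent.Lib.Helper11.AschO.SING
import Cfsg.Agent.Lib.Helper59.Asch9.PR8

/-! Ladder O9 (S5835), rung PWB. -/

set_option autoImplicit false
set_option linter.unusedSectionVars false

namespace Cfsg.Agent.Lib.Helper6.O9

open Cfsg Cfsg.Geo QuadraticMap
open Cfsg.Agent.Lib.Helper11.AschO
open Cfsg.Agent.Lib.Helper59.Asch9 (IsPureVec)
open scoped MatrixGroups Matrix

variable {ι : Type} [Fintype ι] [DecidableEq ι] {F : Type*} [Field F]

/-- the skew-symmetric `3 × 3` array with entries `s 0, s 1, s 2` above the diagonal. -/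
def pwbSkew (s : Fin 3 → F) (u : Fin 2 → Fin 3) : F :=
  (if u 0 < u 1 then s (u 0 + u 1 - 1) else 0) - (if u 1 < u 0 then s (u 1 + u 0 - 1) else 0)

theorem pwb_add (s s' : Fin 3 → F) : pwbSkew (s + s') = pwbSkew s + pwbSkew s' := by
  funext u
  simp only [pwbSkew, Pi.add_apply]
  split_ifs <;> ring

theorem pwb_smul (c : F) (s : Fin 3 → F) : pwbSkew (c • s) = c • pwbSkew s := by
  funext u
  simp only [pwbSkew, Pi.smul_apply, smul_eq_mul]
  split_ifs <;> ring

theorem pwb_inj (s : Fin 3 → F) (h : pwbSkew s = 0) : s = 0 := by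
  funext i
  fin_cases i
  · have := congrFun h ![0, 1]
    simpa [pwbSkew] using this
  · have := congrFun h ![0, 2]
    simpa [pwbSkew] using this
  · have := congrFun h ![1, 2]
    have e1 : (-1 : Fin 3) = 2 := by decide
    simpa [pwbSkew, e1] using this

theorem pwb_swap (s : Fin 3 → F) (i j : Fin 3) : pwbSkew s ![i, j] = - pwbSkew s ![j, i] := by
  simp [pwbSkew]

theorem pwb_diag (s : Fin 3 → F) (i : Fin 3) : pwbSkew s ![i, i] = 0 := by
  simp [pwbSkew]

theorem pwb_not_pure (s : Fin 3 → F) (hs : pwbSkew s ≠ 0) : ¬ IsPureVec 3 2 (pwbSkew s) := by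
  rintro ⟨vs, hvs⟩
  apply hs
  funext u
  have key : ∀ i j : Fin 3, pwbSkew s ![i, j] = vs 0 i * vs 1 j := by
    intro i j
    rw [hvs, Fin.prod_univ_two]
    rfl
  have hu : u = ![u 0, u 1] := by
    funext k
    fin_cases k <;> rfl
  rw [hu]
  by_contra hne
  have h1 := key (u 0) (u 1)
  have h2 := key (u 0) (u 0)
  have h3 := key (u 1) (u 0)
  rw [pwb_diag] at h2
  have ha : vs 0 (u 0) ≠ 0 := by
    intro h0
    apply hne
    rw [h1, h0, zero_mul]
    rfl
  have hb : vs 1 (u 0) = 0 := (mul_eq_zero.1 h2.symm).resolve_left ha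
  apply hne
  rw [pwb_swap, h3, hb, mul_zero, neg_zero]
  rfl

theorem exists_nonpure_singular [Fintype F] (h2 : (2 : F) ≠ 0) (Q : QuadraticForm F (ι → F)) (e : ι ≃ (Fin 2 → Fin 3))
    (P : GL ι F) :
    ∃ y : (Fin 2 → Fin 3) → F, y ≠ 0 ∧ ¬ IsPureVec 3 2 y ∧ Q ((P : Matrix ι ι F) *ᵥ (y ∘ e)) = 0 := by
  let T : (Fin 3 → F) →ₗ[F] (ι → F) :=
    { toFun := fun s => (P : Matrix ι ι F) *ᵥ (pwbSkew s ∘ e)
      map_add' := by
        intro s s'
        rw [pwb_add, ← Matrix.mulVec_add]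
        rfl
      map_smul' := by
        intro c s
        rw [pwb_smul, RingHom.id_apply, ← Matrix.mulVec_smul]
        rfl }
  have hT : ∀ s, T s = (P : Matrix ι ι F) *ᵥ (pwbSkew s ∘ e) := fun _ => rfl
  have hinj : Function.Injective T := by
    rw [← LinearMap.ker_eq_bot, LinearMap.ker_eq_bot']
    intro s hs
    rw [hT] at hs
    have h1 : pwbSkew s ∘ e = 0 := by
      have h0 : ((P⁻¹ : GL ι F) : Matrix ι ι F) *ᵥ ((P : Matrix ι ι F) *ᵥ (pwbSkew s ∘ e)) = 0 := by
        rw [hs, Matrix.mulVec_zero]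
      rwa [Matrix.mulVec_mulVec, ← Units.val_mul, inv_mul_cancel, Units.val_one,
        Matrix.one_mulVec] at h0
    apply pwb_inj
    funext u
    have := congrFun h1 (e.symm u)
    simpa using this
  have hr : Module.finrank F (LinearMap.range T) = 3 := by
    rw [LinearMap.finrank_range_of_inj hinj, Module.finrank_fin_fun]
  obtain ⟨z, ⟨s, rfl⟩, hz0, hQ⟩ := exists_singular_in Q (LinearMap.range T) (by omega)
  have hy : pwbSkew s ≠ 0 := by
    intro h
    apply hz0
    rw [hT, h]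
    have : ((0 : (Fin 2 → Fin 3) → F) ∘ e) = 0 := rfl
    rw [this, Matrix.mulVec_zero]
  exact ⟨pwbSkew s, hy, pwb_not_pure s hy, hQ⟩

end Cfsg.Agent.Lib.Helper6.O9
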