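import Cfsg.Agent.Lib.Helper59.Asch9.PR8

/-! Ladder O9 (S5835), rung PWC. -/

set_option autoImplicit false
set_option linter.unusedSectionVars false

namespace Cfsg.Agent.Lib.Helper6.O9

open Cfsg Cfsg.Geo QuadraticMap
open Cfsg.Agent.Lib.Helper59.Asch9 (IsPureVec PresPure pr8_std)
open scoped MatrixGroups Matrix

variable {ι : Type} [Fintype ι] [DecidableEq ι] {F : Type*} [Field F]

theorem pwc_mulVec_injective (g : GL ι F) {x y : ι → F}
    (hxy : (g : Matrix ι ι F) *ᵥ x = (g : Matrix ι ι F) *ᵥ y) : x = y := by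
  have := congrArg (fun v => ((g⁻¹ : GL ι F) : Matrix ι ι F) *ᵥ v) hxy
  simp only [Matrix.mulVec_mulVec, ← Units.val_mul, inv_mul_cancel,
    Units.val_one, Matrix.one_mulVec] at this
  exact this

theorem pwc_reindex {κ : Type} [Fintype κ] [DecidableEq κ] (e : ι ≃ κ) (k : GL κ F) (x : κ → F) :
    ((glReindex e.symm k : GL ι F) : Matrix ι ι F) *ᵥ (x ∘ e) = ((k : Matrix κ κ F) *ᵥ x) ∘ e := by
  have h1 : ((glReindex e.symm k : GL ι F) : Matrix ι ι F) = (k : Matrix κ κ F).submatrix e e := rfl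
  rw [h1, Matrix.submatrix_mulVec_equiv]
  congr 2
  ext i
  simp

/-- PWC. -/
theorem wreath_pres_pure (e : ι ≃ (Fin 2 → Fin 3)) (P g : GL ι F) (hg : g ∈ tensorWreathSubgroup 3 2 e P)
    (x y : (Fin 2 → Fin 3) → F) (hx : IsPureVec 3 2 x)
    (h : (g : Matrix ι ι F) *ᵥ ((P : Matrix ι ι F) *ᵥ (x ∘ e)) = (P : Matrix ι ι F) *ᵥ (y ∘ e)) : IsPureVec 3 2 y := by
  unfold tensorWreathSubgroup at hg
  obtain ⟨k', hk', rfl⟩ := Subgroup.mem_map.mp hg
  obtain ⟨k, hk, rfl⟩ := Subgroup.mem_map.mp hk'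
  have h1 : (((MulAut.conj P).toMonoidHom ((glReindex e.symm).toMonoidHom k) : GL ι F) : Matrix ι ι F)
      = (P : Matrix ι ι F) * ((glReindex e.symm k : GL ι F) : Matrix ι ι F)
        * ((P⁻¹ : GL ι F) : Matrix ι ι F) := by
    show ((P * glReindex e.symm k * P⁻¹ : GL ι F) : Matrix ι ι F) = _
    rw [Units.val_mul, Units.val_mul]
  have h0 : ((P⁻¹ : GL ι F) : Matrix ι ι F) * (P : Matrix ι ι F) = 1 := by
    rw [← Units.val_mul, inv_mul_cancel, Units.val_one]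
  rw [h1, Matrix.mulVec_mulVec, Matrix.mul_assoc, h0,
    Matrix.mul_one, ← Matrix.mulVec_mulVec, pwc_reindex] at h
  have h2 := pwc_mulVec_injective P h
  have h3 : (k : Matrix (Fin 2 → Fin 3) (Fin 2 → Fin 3) F) *ᵥ x = y := by
    ext u
    have := congrFun h2 (e.symm u)
    simpa using this
  rw [← h3]
  exact (pr8_std k hk).1 x hx

end Cfsg.Agent.Lib.Helper6.O9
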