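import Cfsg.Agent.Lib.Helper11.AschO.WIT
import Cfsg.Agent.Lib.Helper6.O9.PWA
import Cfsg.Agent.Lib.Helper6.O9.PWB
import Cfsg.Agent.Lib.Helper6.O9.PWC

/-! Ladder O9, rung PW (assembly): `Ω_9(q)` is not inside a tensor wreath subgroup. -/

set_option autoImplicit false
set_option linter.unusedSectionVars false

namespace Cfsg.Agent.Lib.Helper6.O9

open Cfsg Cfsg.Geo QuadraticMap
open Cfsg.Agent.Lib.Helper11.AschO
open scoped MatrixGroups Matrix

variable {ι : Type} [Fintype ι] [DecidableEq ι] {F : Type*} [Field F]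

theorem not_le_wreath [Fintype F] (h2 : (2 : F) ≠ 0) (Q : QuadraticForm F (ι → F)) (hQ : (polarBilin Q).Nondegenerate)
    (h7 : 7 ≤ Fintype.card ι) (e : ι ≃ (Fin 2 → Fin 3)) (P : GL ι F) :
    ¬ omegaGL Q ≤ tensorWreathSubgroup 3 2 e P := by
  intro hle
  obtain ⟨x, hx0, hxp, hxQ⟩ := exists_pure_singular Q e P
  obtain ⟨y, hy0, hyp, hyQ⟩ := exists_nonpure_singular h2 Q e P
  have hne : ∀ x : (Fin 2 → Fin 3) → F, x ≠ 0 → (P : Matrix ι ι F) *ᵥ (x ∘ e) ≠ 0 := by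
    intro x hx h0
    apply hx
    have h1 : ((P⁻¹ : GL ι F) : Matrix ι ι F) *ᵥ ((P : Matrix ι ι F) *ᵥ (x ∘ e)) = x ∘ e := by
      rw [Matrix.mulVec_mulVec, ← Units.val_mul, inv_mul_cancel, Units.val_one, Matrix.one_mulVec]
    rw [h0, Matrix.mulVec_zero] at h1
    funext u
    have := congrFun h1 (e.symm u)
    simpa using this.symm
  obtain ⟨g, hg, hgx⟩ := omega_map_vec Q hQ h7 _ _ (hne x hx0) (hne y hy0) (hxQ.trans hyQ.symm)
  exact hyp (wreath_pres_pure e P g (hle hg) x y hxp hgx)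

end Cfsg.Agent.Lib.Helper6.O9
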