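import Mathlib
import Cfsg.Prelude.Def_GeometricClasses

/-! Ladder O9 (S5835), rung PERM. -/

set_option autoImplicit false
set_option linter.unusedSectionVars false

namespace Cfsg.Agent.Lib.Helper6.O9

open Cfsg Cfsg.Geo QuadraticMap
open scoped MatrixGroups Matrix

variable {ι : Type} [Fintype ι] [DecidableEq ι] {F : Type*} [Field F]

theorem perm_toLin_injective (g : GL ι F) :
    Function.Injective (Matrix.toLin' (g : Matrix ι ι F)) := by
  intro x y hxy
  have := congrArg (Matrix.toLin' ((g⁻¹ : GL ι F) : Matrix ι ι F)) hxy
  simp only [Matrix.toLin'_apply, Matrix.mulVec_mulVec, ← Units.val_mul, inv_mul_cancel,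
    Units.val_one, Matrix.one_mulVec] at this
  exact this

/-- PERM. -/
theorem mem_stab_of_forall {t m : ℕ} (D : Fin t → Submodule F (ι → F)) (hD : IsMDecomposition m D) (g : GL ι F)
    (h : ∀ i, ∃ j, (D i).map (Matrix.toLin' (g : Matrix ι ι F)) = D j) : g ∈ decompositionStabilizer D := by
  choose σ hσ using h
  have hne : ∀ i, D i ≠ ⊥ := by
    intro i hi
    have h1 := hD.finrank_eq i
    rw [hi, finrank_bot] at h1
    have := hD.pos
    omega
  have hDinj : Function.Injective D := hD.indep.injective hne
  have hσinj : Function.Injective σ := by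
    intro i i' hii
    apply hDinj
    apply Submodule.map_injective_of_injective (perm_toLin_injective g)
    rw [hσ, hσ, hii]
  exact ⟨Equiv.ofBijective σ (Finite.injective_iff_bijective.mp hσinj), fun i => hσ i⟩

end Cfsg.Agent.Lib.Helper6.O9
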