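import Mathlib
import Cfsg.Prelude.Def_GeometricClasses
import Cfsg.Agent.Lib.Helper17.FrameThree

/-! Ladder O9, rung Q3A: the frame of a nondegenerate 3-space over the field with three elements. -/

set_option autoImplicit false
set_option linter.unusedSectionVars false

namespace Cfsg.Agent.Lib.Helper6.O9

open Cfsg Cfsg.Geo QuadraticMap
open Cfsg.Agent.Lib.Helper17.FrameThree (Frame exists_frame)
open scoped MatrixGroups Matrix

variable {ι : Type} [Fintype ι] [DecidableEq ι] {F : Type*} [Field F]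

theorem q3a_three [Fintype F] (hq : Fintype.card F = 3) (x : F) : x = 0 ∨ x = 1 ∨ x = -1 := by
  have h := FiniteField.pow_card x
  rw [hq] at h
  have h2 : x * ((x - 1) * (x + 1)) = 0 := by
    have : x * ((x - 1) * (x + 1)) = x ^ 3 - x := by ring
    rw [this, h, sub_self]
  rcases mul_eq_zero.mp h2 with h3 | h3
  · exact Or.inl h3
  · rcases mul_eq_zero.mp h3 with h4 | h4
    · exact Or.inr (Or.inl (sub_eq_zero.mp h4))
    · exact Or.inr (Or.inr (eq_neg_of_add_eq_zero_left h4))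

theorem q3a_cases (hF : ∀ a : F, a = 0 ∨ a = 1 ∨ a = -1) (h3 : (3 : F) = 0) (a0 a1 a2 : F)
    (h : a0 * a0 + a1 * a1 + a2 * a2 = 1) :
    ((a0 = 1 ∨ a0 = -1) ∧ a1 = 0 ∧ a2 = 0) ∨ (a0 = 0 ∧ (a1 = 1 ∨ a1 = -1) ∧ a2 = 0) ∨
      (a0 = 0 ∧ a1 = 0 ∧ (a2 = 1 ∨ a2 = -1)) := by
  rcases hF a0 with h0 | h0 | h0 <;> rcases hF a1 with h1 | h1 | h1 <;> rcases hF a2 with h2 | h2 | h2 <;>
    subst h0 <;> subst h1 <;> subst h2 <;>
    first
    | (exfalso; apply one_ne_zero (α := F); linear_combination -h)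
    | (exfalso; apply one_ne_zero (α := F); linear_combination h)
    | (exfalso; apply one_ne_zero (α := F); linear_combination h3 - h)
    | simp

/-- Q3A. -/
theorem three_frame [Fintype F] (hq : Fintype.card F = 3) (Q : QuadraticForm F (ι → F)) (W : Submodule F (ι → F))
    (hW : IsNondegenerateOn (polar Q) W) (hd : Module.finrank F W = 3) :
    ∃ (c : F) (b : Fin 3 → ι → F), c ≠ 0 ∧ (∀ i, b i ∈ W) ∧ (∀ i, Q (b i) = c) ∧
      (∀ i j, i ≠ j → polar Q (b i) (b j) = 0) ∧ ∀ w ∈ W, Q w = c → ∃ i, w = b i ∨ w = - b i := by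
  have hF := q3a_three (F := F) hq
  have h3 : (3 : F) = 0 := by
    have := Nat.cast_card_eq_zero F
    rw [hq] at this
    exact_mod_cast this
  let bas := Module.finBasisOfFinrankEq F W hd
  let T : (Fin 3 → F) →ₗ[F] (ι → F) := W.subtype ∘ₗ bas.equivFun.symm.toLinearMap
  have hTW : ∀ a, T a ∈ W := fun a => (bas.equivFun.symm a).2
  have hTinj : Function.Injective T := by
    intro a b hab
    exact bas.equivFun.symm.injective (Subtype.ext hab)
  have hTsurj : ∀ w ∈ W, ∃ a, T a = w := by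
    intro w hw
    exact ⟨bas.equivFun ⟨w, hw⟩, by simp [T]⟩
  let f : (Fin 3 → F) → (Fin 3 → F) → F := fun a b => polar Q (T a) (T b)
  have hf : IsSymmetricForm f := by
    refine ⟨⟨?_, ?_, ?_, ?_⟩, ?_, ?_⟩
    · intro x y v; simp only [f, map_add, polar_add_left]
    · intro c x v; simp only [f, map_smul, polar_smul_left, smul_eq_mul]
    · intro v x y; simp only [f, map_add, polar_add_right]
    · intro c v x; simp only [f, map_smul, polar_smul_right, smul_eq_mul]
    · intro u v; exact polar_comm _ _ _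
    · intro v hv
      have hTv : T v ≠ 0 := by
        intro h; apply hv; apply hTinj; rw [h, map_zero]
      obtain ⟨⟨x, hx, hx1⟩, ⟨x', hx', hx1'⟩⟩ := hW (T v) (hTW v) hTv
      obtain ⟨a, rfl⟩ := hTsurj x hx
      obtain ⟨a', rfl⟩ := hTsurj x' hx'
      exact ⟨⟨a, hx1⟩, ⟨a', hx1'⟩⟩
  obtain ⟨ε, y, hy⟩ := exists_frame hF h3 hf
  have hpol : ∀ x, polar Q x x = 2 * Q x := by
    intro x; rw [polar_self]; simp [two_mul, two_smul]
  have hQ : ∀ x, Q x = - polar Q x x := by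
    intro x; rw [hpol]; linear_combination (Q x) * h3
  refine ⟨-ε, fun i => T (y i), neg_ne_zero.2 hy.ne, fun i => hTW _, ?_, ?_, ?_⟩
  · intro i
    have := hy.orth i i
    rw [if_pos rfl] at this
    rw [hQ, ← this]
  · intro i j hij
    have := hy.orth i j
    rw [if_neg hij] at this
    exact this
  · intro w hw hQw
    obtain ⟨a', rfl⟩ := hTsurj w hw
    obtain ⟨a, rfl⟩ := hy.span a'
    have h1 := hy.form hf.bilinear a a
    have h2 : f (a 0 • y 0 + a 1 • y 1 + a 2 • y 2) (a 0 • y 0 + a 1 • y 1 + a 2 • y 2) = ε := by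
      have := hQ (T (a 0 • y 0 + a 1 • y 1 + a 2 • y 2))
      rw [hQw] at this
      exact (neg_injective this).symm
    rw [h2] at h1
    have h4 : a 0 * a 0 + a 1 * a 1 + a 2 * a 2 = 1 := by
      apply mul_left_cancel₀ hy.ne; rw [← h1, mul_one]
    rcases q3a_cases hF h3 _ _ _ h4 with ⟨h0 | h0, h1, h2⟩ | ⟨h0, h1 | h1, h2⟩ | ⟨h0, h1, h2 | h2⟩
    · exact ⟨0, Or.inl (by rw [h0, h1, h2]; simp)⟩
    · exact ⟨0, Or.inr (by rw [h0, h1, h2]; simp)⟩
    · exact ⟨1, Or.inl (by rw [h0, h1, h2]; simp)⟩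
    · exact ⟨1, Or.inr (by rw [h0, h1, h2]; simp)⟩
    · exact ⟨2, Or.inl (by rw [h0, h1, h2]; simp)⟩
    · exact ⟨2, Or.inr (by rw [h0, h1, h2]; simp)⟩

end Cfsg.Agent.Lib.Helper6.O9
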