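import Cfsg.Agent.Lib.Helper11.AschO.Defs
import Cfsg.Agent.Lib.Helper6.O9.Q3A
import Cfsg.Agent.Lib.Helper6.O9.FRB
import Cfsg.Agent.Lib.Helper6.O9.PERM

/-! Ladder O9, rung Q3D (assembly): over `F_3` three orthogonal isometric 3-blocks refine to a frame of nine lines. -/

set_option autoImplicit false
set_option linter.unusedSectionVars false

namespace Cfsg.Agent.Lib.Helper6.O9

open Cfsg Cfsg.Geo QuadraticMap
open scoped MatrixGroups Matrix

variable {ι : Type} [Fintype ι] [DecidableEq ι] {F : Type*} [Field F]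

theorem q3d_span_neg (v : ι → F) : Submodule.span F {-v} = Submodule.span F {v} := by
  apply le_antisymm
  · rw [Submodule.span_singleton_le_iff_mem]
    exact Submodule.neg_mem _ (Submodule.mem_span_singleton_self v)
  · rw [Submodule.span_singleton_le_iff_mem]
    have := Submodule.neg_mem _ (Submodule.mem_span_singleton_self (R := F) (-v))
    rwa [neg_neg] at this

theorem refine_three [Fintype F] (hq : Fintype.card F = 3) (h2 : (2 : F) ≠ 0) (Q : QuadraticForm F (ι → F))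
    (hc : Fintype.card ι = 9) (D : Fin 3 → Submodule F (ι → F)) (hD : IsOrthogonalMDecomposition Q 3 D)
    (H : Subgroup (GL ι F)) (hfix : FixesQuadForm (matrixSet H) Q) (hH : H ≤ decompositionStabilizer D) :
    ∃ D' : Fin 9 → Submodule F (ι → F), IsOrthogonalMDecomposition Q 1 D' ∧ H ≤ decompositionStabilizer D' := by
  classical
  obtain ⟨c, b, hc0, hbW, hbQ, hbo, hball⟩ :=
    three_frame hq Q (D 0) (hD.decomp.nondegenerate 0) (hD.decomp.decomp.finrank_eq 0)
  choose E hE using fun i => hD.isometric 0 i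
  let B : Fin 3 × Fin 3 → (ι → F) := fun p => ((E p.1 ⟨b p.2, hbW p.2⟩ : D p.1) : ι → F)
  have hBmem : ∀ p, B p ∈ D p.1 := fun p => (E p.1 ⟨b p.2, hbW p.2⟩).2
  have hBQ : ∀ p, Q (B p) = c := by
    intro p
    rw [← hbQ p.2]
    exact hE p.1 ⟨b p.2, hbW p.2⟩
  have hpol : ∀ i (x y : D 0), polar Q ((E i x : D i) : ι → F) ((E i y : D i) : ι → F) = polar Q (x : ι → F) (y : ι → F) := by
    intro i x y
    unfold polar
    rw [hE i x, hE i y]
    have h1 : ((E i x : D i) : ι → F) + ((E i y : D i) : ι → F) = ((E i (x + y) : D i) : ι → F) := by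
      rw [map_add]; rfl
    rw [h1, hE i (x + y)]
    rfl
  have hBo : ∀ p p', p ≠ p' → polar Q (B p) (B p') = 0 := by
    intro p p' hne
    by_cases h1 : p.1 = p'.1
    · obtain ⟨i, j⟩ := p
      obtain ⟨i', j'⟩ := p'
      simp only at h1
      subst h1
      have hj : j ≠ j' := fun h => hne (by rw [h])
      exact (hpol i ⟨b j, hbW j⟩ ⟨b j', hbW j'⟩).trans (hbo j j' hj)
    · exact hD.decomp.orthogonal p.1 p'.1 h1 _ (hBmem p) _ (hBmem p')
  have hBall : ∀ i, ∀ w ∈ D i, Q w = c → ∃ j, w = B (i, j) ∨ w = - B (i, j) := by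
    intro i w hw hQw
    have h1 : Q (((E i).symm ⟨w, hw⟩ : D 0) : ι → F) = c := by
      rw [← hE i ((E i).symm ⟨w, hw⟩), LinearEquiv.apply_symm_apply]
      exact hQw
    obtain ⟨j, hj⟩ := hball _ ((E i).symm ⟨w, hw⟩).2 h1
    refine ⟨j, ?_⟩
    have h3 : w = ((E i ((E i).symm ⟨w, hw⟩) : D i) : ι → F) := by
      rw [LinearEquiv.apply_symm_apply]
    rcases hj with hj | hj
    · left
      rw [h3]
      have h4 : (E i).symm ⟨w, hw⟩ = ⟨b j, hbW j⟩ := Subtype.ext hj
      rw [h4]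
    · right
      rw [h3]
      have h4 : (E i).symm ⟨w, hw⟩ = - ⟨b j, hbW j⟩ := Subtype.ext hj
      rw [h4, map_neg]
      rfl
  let ε : Fin 3 × Fin 3 ≃ Fin 9 := finProdFinEquiv
  let b9 : Fin 9 → (ι → F) := fun i => B (ε.symm i)
  have hfr := frame_of_vectors h2 Q (n := 9) (by norm_num) hc c hc0 b9 (fun i => hBQ _)
    (fun i j hij => hBo _ _ (fun h => hij (ε.symm.injective h)))
  refine ⟨_, hfr, ?_⟩
  intro h hh
  apply mem_stab_of_forall _ hfr.decomp.decomp h
  intro i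
  obtain ⟨σ, hσ⟩ := hH hh
  have h1 : (h : Matrix ι ι F) *ᵥ b9 i ∈ D (σ (ε.symm i).1) := by
    rw [← hσ]
    exact ⟨b9 i, hBmem _, by rw [Matrix.toLin'_apply]⟩
  have h3 : Q ((h : Matrix ι ι F) *ᵥ b9 i) = c := by
    rw [hfix _ ⟨h, hh, rfl⟩]
    exact hBQ _
  obtain ⟨j, hj⟩ := hBall _ _ h1 h3
  refine ⟨ε (σ (ε.symm i).1, j), ?_⟩
  show (Submodule.span F {b9 i}).map _ = Submodule.span F {b9 (ε (σ (ε.symm i).1, j))}
  rw [Submodule.map_span, Set.image_singleton, Matrix.toLin'_apply]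
  have h5 : b9 (ε (σ (ε.symm i).1, j)) = B (σ (ε.symm i).1, j) := by
    show B (ε.symm (ε _)) = _
    rw [Equiv.symm_apply_apply]
  rw [h5]
  rcases hj with hj | hj
  · rw [hj]
  · rw [hj, q3d_span_neg]

end Cfsg.Agent.Lib.Helper6.O9
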