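import Cfsg.Agent.Lib.Helper11.AschO.Main
import Cfsg.Agent.Lib.Lead.OG.Defs
import Cfsg.Agent.Lib.Helper80.AS.DSUM
import Cfsg.Agent.Lib.Helper80.AS.DEG
import Cfsg.Agent.Lib.Helper6.O9.PD3
import Cfsg.Agent.Lib.Helper6.O9.PF
import Cfsg.Agent.Lib.Helper6.O9.PW
import Cfsg.Agent.Lib.Helper6.O9.Q3D

/-! Ladder O9: from the general structure theorem (`InGeoO` or residual) to the list of maximal subgroups of `Ω_9(q)`. -/

set_option autoImplicit false
set_option linter.unusedSectionVars false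

namespace Cfsg.Agent.Lib.Helper6.O9

open Cfsg Cfsg.Geo QuadraticMap
open Cfsg.Agent.Lib.Helper11.AschO
open scoped MatrixGroups Matrix

variable {ι : Type} [Fintype ι] [DecidableEq ι] {F : Type*} [Field F]

theorem main9_arith_tk {t k : ℕ} (ht : 2 ≤ t) (hk : 1 < k) (h : t * k = 9) : t = 3 ∧ k = 3 := by
  have h1 : t ∣ 9 := ⟨k, h.symm⟩
  have h2 : t ≤ 9 := Nat.le_of_dvd (by norm_num) h1
  interval_cases t <;> omega

theorem main9_arith_pow {k t : ℕ} (hk : 3 ≤ k) (ht : 2 ≤ t) (h : k ^ t = 9) : k = 3 ∧ t = 2 := by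
  have h1 : k ^ 2 ≤ k ^ t := Nat.pow_le_pow_right (by omega) ht
  have h2 : k ≤ 3 := by nlinarith
  have h3 : k = 3 := by omega
  subst h3
  refine ⟨rfl, ?_⟩
  by_contra hne
  have h4 : 3 ^ 3 ≤ 3 ^ t := Nat.pow_le_pow_right (by omega) (by omega)
  omega

theorem main9 [Fintype F] (h2 : (2 : F) ≠ 0) (hodd : Odd (Fintype.card F)) (Q : QuadraticForm F (ι → F))
    (hQ : (polarBilin Q).Nondegenerate) (hc : Fintype.card ι = 9) (H : Subgroup (GL ι F))
    (hH : IsMaximalIn (omegaGL Q) H)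
    (hs : Cfsg.Agent.Lib.Lead.OG.InGeoO Q H ∨ InOrthogonalResidualClass H) :
    (∃ W : Submodule F (ι → F), W ≠ ⊥ ∧ IsTotallySingularQuad Q W ∧ H = subspaceStabilizer W ⊓ omegaGL Q) ∨
    (∃ W : Submodule F (ι → F), W ≠ ⊥ ∧ Even (Module.finrank F W) ∧ IsNondegenerateOn (polar Q) W ∧
      ¬ (Fintype.card F = 3 ∧ Module.finrank F W = 2 ∧ IsPlusTypeOn Q W) ∧ H = subspaceStabilizer W ⊓ omegaGL Q) ∨
    ((Fintype.card F).Prime ∧ ∃ D : Fin 9 → Submodule F (ι → F), IsOrthogonalMDecomposition Q 1 D ∧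
      H = decompositionStabilizer D ⊓ omegaGL Q) ∨
    (5 ≤ Fintype.card F ∧ ∃ D : Fin 3 → Submodule F (ι → F), IsOrthogonalMDecomposition Q 3 D ∧
      H = decompositionStabilizer D ⊓ omegaGL Q) ∨
    (∃ K : Subalgebra F (Matrix ι ι F), IsFieldSubalgebra 3 K ∧ IsSelfAdjointFor (polar Q) K ∧
      H = subalgebraNormalizer K ⊓ omegaGL Q) ∨
    (∃ (F₀ : Subfield F) (r : ℕ) (P : GL ι F), r.Prime ∧ Fintype.card F = Nat.card F₀ ^ r ∧
      IsQuadFormRationalStructure Q F₀ P ∧ H = subfieldSubgroup F₀ P ⊓ omegaGL Q) ∨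
    (5 ≤ Fintype.card F ∧ ∃ (e : ι ≃ (Fin 2 → Fin 3)) (P : GL ι F) (f₁ : (Fin 3 → F) → (Fin 3 → F) → F),
      IsSymmetricForm f₁ ∧ IsTensorPowerFormStructure id (polar Q) f₁ e P ∧
      H = tensorWreathSubgroup 3 2 e P ⊓ omegaGL Q) ∨
    InOrthogonalResidualClass H := by
  classical
  have hHle : H ≤ omegaGL Q := hH.1.le
  have hfixH : FixesQuadForm (matrixSet H) Q := main_fixes_mono hHle _ (omega_fixes Q)
  have h7 : 7 ≤ Fintype.card ι := by omega
  have hk : Fintype.card ι = 2 * 4 + 1 := by omega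
  have : Nonempty ι := Fintype.card_pos_iff.1 (by omega)
  have hq3 : 3 ≤ Fintype.card F := by
    have h1 : 1 < Fintype.card F := Fintype.one_lt_card
    obtain ⟨a, ha⟩ := hodd
    omega
  have hq5 : Fintype.card F ≠ 3 → 5 ≤ Fintype.card F := by
    intro h
    obtain ⟨a, ha⟩ := hodd
    omega
  have key : ∀ X : Subgroup (GL ι F), H ≤ X → ¬ omegaGL Q ≤ X → H = X ⊓ omegaGL Q := by
    intro X hX hnot
    rcases hH.2 (X ⊓ omegaGL Q) (le_inf hX hHle) inf_le_right with h | h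
    · exact h.symm
    · exact absurd (h ▸ inf_le_left) hnot
  have hred : ∀ W : Submodule F (ι → F), W ≠ ⊥ → W ≠ ⊤ → H ≤ subspaceStabilizer W →
      (∃ W : Submodule F (ι → F), W ≠ ⊥ ∧ IsTotallySingularQuad Q W ∧ H = subspaceStabilizer W ⊓ omegaGL Q) ∨
      (∃ W : Submodule F (ι → F), W ≠ ⊥ ∧ Even (Module.finrank F W) ∧ IsNondegenerateOn (polar Q) W ∧
        ¬ (Fintype.card F = 3 ∧ Module.finrank F W = 2 ∧ IsPlusTypeOn Q W) ∧
        H = subspaceStabilizer W ⊓ omegaGL Q) := by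
    intro W hW0 hW1 hHW
    rcases main_red h2 Q hQ hk h7 H hfixH W hW0 hW1 hHW with ⟨W', h0, h1, hs, hst⟩ | ⟨W', h0, h1, he, hnd, hex, hst⟩
    · exact Or.inl ⟨W', h0, hs, key _ hst (not_le_subspace Q hQ h7 W' h0 h1)⟩
    · exact Or.inr ⟨W', h0, he, hnd, hex, key _ hst (not_le_subspace Q hQ h7 W' h0 h1)⟩
  have hframe : ∀ D : Fin 9 → Submodule F (ι → F), (Fintype.card F).Prime → IsOrthogonalMDecomposition Q 1 D →
      H ≤ decompositionStabilizer D →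
      ((Fintype.card F).Prime ∧ ∃ D : Fin 9 → Submodule F (ι → F), IsOrthogonalMDecomposition Q 1 D ∧
        H = decompositionStabilizer D ⊓ omegaGL Q) := by
    intro D hq hD hHD
    exact ⟨hq, D, hD, key _ hHD (not_le_decomp h2 Q hQ h7 hc D hD)⟩
  rcases hs with hs | hs
  swap
  · exact Or.inr (Or.inr (Or.inr (Or.inr (Or.inr (Or.inr (Or.inr hs))))))
  rcases hs with ⟨W, hW0, hsing, hst⟩ | ⟨W, hW0, hW1, -, hst⟩ | ⟨t, k, D, hk1, hD, hst⟩ | ⟨t, D, hq, hD, hst⟩ |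
    ⟨r, K, hr, hne, hK, hsa, hst⟩ | ⟨n₁, n₂, e, P, f₁, f₂, h3, hlt, -, -, -, -⟩ | ⟨F₀, r, P, hr, hcard, hrat, hst⟩ |
    ⟨k, t, e, P, f₁, hk3, ht2, hex, hf₁, hstr, hst⟩
  · have hW1 : W ≠ ⊤ := by
      rintro rfl
      obtain ⟨v, hv⟩ := o3_exists_nonsing Q hQ
      exact hv (hsing v trivial)
    rcases hred W hW0 hW1 hst with h | h
    · exact Or.inl h
    · exact Or.inr (Or.inl h)
  · rcases hred W hW0 hW1 hst with h | h
    · exact Or.inl h
    · exact Or.inr (Or.inl h)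
  · have hcard := Cfsg.Agent.Lib.Helper80.AS.decomp_card D hD.decomp.decomp
    rw [hc] at hcard
    obtain ⟨rfl, rfl⟩ := main9_arith_tk hD.decomp.decomp.two_le hk1 hcard
    by_cases hq : Fintype.card F = 3
    · obtain ⟨D', hD', hst'⟩ := refine_three hq h2 Q hc D hD H hfixH hst
      exact Or.inr (Or.inr (Or.inl (hframe D' (by rw [hq]; norm_num) hD' hst')))
    · exact Or.inr (Or.inr (Or.inr (Or.inl ⟨hq5 hq, D, hD, key _ hst (not_le_decomp3 Q hQ h7 D hD)⟩)))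
  · have hcard := Cfsg.Agent.Lib.Helper80.AS.decomp_card D hD.decomp.decomp
    rw [hc, mul_one] at hcard
    subst hcard
    exact Or.inr (Or.inr (Or.inl (hframe D hq hD hst)))
  · have hdvd := Cfsg.Agent.Lib.Helper80.AS.deg_dvd r K hK
    rw [hc] at hdvd hne
    have hr3 : r = 3 := by
      have h9 : (9 : ℕ) = 3 ^ 2 := by norm_num
      rw [h9] at hdvd
      exact (Nat.prime_dvd_prime_iff_eq hr Nat.prime_three).1 (hr.dvd_of_dvd_pow hdvd)
    subst hr3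
    exact Or.inr (Or.inr (Or.inr (Or.inr (Or.inl ⟨K, hK, hsa, key _ hst (not_le_fieldNorm Q hQ hc K hK)⟩))))
  · exfalso
    have h1 := Fintype.card_congr e
    rw [hc, Fintype.card_prod, Fintype.card_fin, Fintype.card_fin] at h1
    have h4 : 4 ≤ n₂ := by omega
    have h5 : 3 * 4 ≤ n₁ * n₂ := Nat.mul_le_mul h3 h4
    omega
  · exact Or.inr (Or.inr (Or.inr (Or.inr (Or.inr (Or.inl ⟨F₀, r, P, hr, hcard, hrat,
      key _ hst (not_le_subfield Q hQ h7 F₀ (ne_top_of_card F₀ r hr hcard) P)⟩)))))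
  · have h1 := Fintype.card_congr e
    rw [hc, Fintype.card_fun, Fintype.card_fin, Fintype.card_fin] at h1
    obtain ⟨rfl, rfl⟩ := main9_arith_pow hk3 ht2 h1.symm
    have hq : Fintype.card F ≠ 3 := fun h => hex ⟨h, rfl⟩
    exact Or.inr (Or.inr (Or.inr (Or.inr (Or.inr (Or.inr (Or.inl ⟨hq5 hq, e, P, f₁, hf₁, hstr,
      key _ hst (not_le_wreath h2 Q hQ h7 e P)⟩))))))

end Cfsg.Agent.Lib.Helper6.O9
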