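import Cfsg.Agent.Lib.Helper11.AschO.WIT

/-! Ladder O9, rung PFA: Witt's lemma for a pair of vectors, inside Omega. -/

set_option autoImplicit false
set_option linter.unusedSectionVars false

namespace Cfsg.Agent.Lib.Helper6.O9

open Cfsg Cfsg.Geo QuadraticMap
open Cfsg.Agent.Lib.Helper11.AschO
open scoped MatrixGroups Matrix

variable {ι : Type} [Fintype ι] [DecidableEq ι] {F : Type*} [Field F]

/-- PFA. -/
theorem omega_fix_move [Fintype F] (Q : QuadraticForm F (ι → F)) (hQ : (polarBilin Q).Nondegenerate)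
    (h7 : 7 ≤ Fintype.card ι) (v w z : ι → F) (hvw : LinearIndependent F ![v, w])
    (hvz : LinearIndependent F ![v, w + z]) (hz : Q z = 0) (h1 : polar Q v z = 0) (h2 : polar Q w z = 0) :
    ∃ g ∈ omegaGL Q, (g : Matrix ι ι F) *ᵥ v = v ∧ (g : Matrix ι ι F) *ᵥ w = w + z := by
  have hfr : Module.finrank F (ι → F) = Fintype.card ι := Module.finrank_fintype_fun_eq_card F
  let b1 := Module.Basis.span hvw
  let b2 := Module.Basis.span hvz
  have hb1 : ∀ i, ((b1 i : Submodule.span F (Set.range ![v, w])) : ι → F) = ![v, w] i :=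
    fun i => congrArg Subtype.val (Module.Basis.span_apply hvw i)
  have hb2 : ∀ i, ((b2 i : Submodule.span F (Set.range ![v, w + z])) : ι → F) = ![v, w + z] i :=
    fun i => congrArg Subtype.val (Module.Basis.span_apply hvz i)
  obtain ⟨k, hk, hka⟩ := Cfsg.Agent.Lib.Helper49.witt_commutator Q hQ (Or.inr (by rw [hfr]; omega))
    _ _ (b1.equiv b2 (Equiv.refl _))
    (by
      intro x
      obtain ⟨c, rfl⟩ : ∃ c : Fin 2 → F, x = ∑ i, c i • b1 i := ⟨_, (b1.sum_repr x).symm⟩
      rw [Fin.sum_univ_two, map_add, map_smul, map_smul, Module.Basis.equiv_apply,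
        Module.Basis.equiv_apply]
      simp only [Equiv.refl_apply, Submodule.coe_add, Submodule.coe_smul, hb1, hb2]
      simp only [Matrix.cons_val_zero, Matrix.cons_val_one]
      have h3 : c 0 • v + c 1 • (w + z) = (c 0 • v + c 1 • w) + c 1 • z := by rw [smul_add, add_assoc]
      rw [h3, QuadraticMap.map_add Q (c 0 • v + c 1 • w), QuadraticMap.map_smul, hz, polar_add_left,
        polar_smul_left, polar_smul_left, polar_smul_right, polar_smul_right, h1, h2]
      simp)
    (by rw [finrank_span_eq_card hvw, hfr]; simp; omega)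
  refine ⟨Cfsg.Agent.Lib.Helper95.glEquiv.symm k.1, ?_, ?_, ?_⟩
  · rw [Cfsg.Agent.Lib.Helper95.mem_omegaGL_iff, MulEquiv.apply_symm_apply]
    exact ⟨k, hk, rfl⟩
  · rw [Cfsg.Agent.Lib.Helper95.glEquiv_symm_mulVec]
    have := hka (b1 0)
    rw [Module.Basis.equiv_apply, hb1, Equiv.refl_apply, hb2] at this
    exact this
  · rw [Cfsg.Agent.Lib.Helper95.glEquiv_symm_mulVec]
    have := hka (b1 1)
    rw [Module.Basis.equiv_apply, hb1, Equiv.refl_apply, hb2] at this
    exact this

end Cfsg.Agent.Lib.Helper6.O9
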